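import Mathlib
import Cfsg.Agent.Lib.Helper56.TC

set_option autoImplicit false
set_option maxRecDepth 1000000

namespace Cfsg.Agent.Lib.Helper56.MYU4

open Cfsg.Agent.Lib.Helper56.TC Cfsg.Agent.Lib.Helper56.TC.Tabs

noncomputable def nA0 : List ℕ := [
0x434a6a749ca8e8d04095015b422f7c54e8080c082d40c88d6fd8c101010420b7504e6a902010206b128ba1541a0400040a09cb3313c535084080e408ba2158627905400]

noncomputable def fA0 : List ℕ := [
0xb6d921a248eb6e16d46956916913d3089201308000000]

end Cfsg.Agent.Lib.Helper56.MYU4
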