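import Mathlib
import Cfsg.Agent.Lib.Helper56.TC
import Cfsg.Agent.Lib.Helper56.TCFast
import Cfsg.Agent.Lib.Helper56.MYU4.DA0
set_option autoImplicit false
set_option maxRecDepth 1000000

namespace Cfsg.Agent.Lib.Helper56.MYU4

open Cfsg.Agent.Lib.Helper56.TC Cfsg.Agent.Lib.Helper56.TC.Tabs

noncomputable def nA : List (List ℕ) := [nA0]

noncomputable def fA : List (List ℕ) := [fA0]

/-- The certificate data. -/
noncomputable def T : Tabs where
  K := 5
  N := 6
  N' := 6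
  INF := 21
  fuel := 1
  inv := fun l => l
  tg := slotFld2 nA 182 90 1237940039285380274899124223 5 15 15 7 (fun _ => 0)
  rk := slotFld2 nA 182 90 1237940039285380274899124223 5 15 18 31
    (fun x => Nat.rec (motive := fun _ => ℕ) 0 (fun _ _ => 21) x)
  jc := slotFld2 nA 182 90 1237940039285380274899124223 5 15 23 127
    (fun x => Nat.rec (motive := fun _ => ℕ) 3 (fun _ _ => 0) x)
  dd := fldA nA 182 90 1237940039285380274899124223 0 7
  dl := fldA nA 182 90 1237940039285380274899124223 3 7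
  qj := fldA nA 182 90 1237940039285380274899124223 6 1
  mp := fldA nA 182 90 1237940039285380274899124223 7 7
  mt := fldA nA 182 90 1237940039285380274899124223 10 31
  tb := tbFld2 fA 546 30 1073741823 3 15 7
  rels1 := [[0, 1, 0, 1, 0, 1],
    [0, 2, 0, 2],
    [0, 3, 0, 3],
    [0, 4, 0, 4],
    [1, 2, 1, 2, 1, 2],
    [1, 3, 1, 3],
    [1, 4, 1, 4],
    [2, 3, 2, 3, 2, 3],
    [2, 4, 2, 4],
    [3, 4, 3, 4, 3, 4]]
  subs := [[0],
    [1],
    [2],
    [3]]
  rx := [[0, 1, 0, 1, 0, 1],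
    [0, 2, 0, 2],
    [0, 3, 0, 3],
    [0, 4, 0, 4],
    [1, 2, 1, 2, 1, 2],
    [1, 3, 1, 3],
    [1, 4, 1, 4],
    [2, 3, 2, 3, 2, 3],
    [2, 4, 2, 4],
    [3, 4, 3, 4, 3, 4],
    [0, 5],
    [1, 6],
    [2, 7],
    [3, 8]]
  RB := 7
  tpl := fldA fA 546 30 1073741823 0 7
  tdep := fldA fA 546 30 1073741823 3 7
  ol := fldA fA 546 30 1073741823 6 1
  oc := fldA fA 546 30 1073741823 7 3
  op := fldA fA 546 30 1073741823 9 7
  odep := fldA fA 546 30 1073741823 12 7
  orep := fun c => Tabs.nth 0 [0, 1] c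

end Cfsg.Agent.Lib.Helper56.MYU4
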